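import Mathlib
import Cfsg.Agent.OrdDiv.Main
import Cfsg.Agent.S0812
import Cfsg.Agent.S0813
import Cfsg.Agent.S2126
import Cfsg.Agent.H934.OutB
import Cfsg.Agent.S0243
import Cfsg.Agent.ClassicalGeometry.PSL2Basic

/-!
# S2499, `Ru`: facts on `Sz(8)`, `PSU₃(4)`, `PSL₂(25)` (helper153)

* `sz_pow_four`, `psu_pow_four` : the 2-elements of `Sz(8)` and `PSU₃(4)` satisfy `y ^ 4 = 1`;
* `aut_sz`, `aut_psl` : the order of the automorphism group;
* `exists_ne_comm` : the Sylow 2-subgroups of `PSL₂(25)` are not commutative.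
-/

set_option autoImplicit false

namespace Cfsg.Agent.H153.Cov.Ru

open Cfsg Subgroup Cfsg.Agent.OrdDiv

section unip

theorem pow_card_eq_zero {n : Type*} [Fintype n] [DecidableEq n] {K : Type*} [Field K] {M : Matrix n n K}
    (h : IsNilpotent M) : M ^ Fintype.card n = 0 := by
  have h1 := Matrix.isNilpotent_charpoly_sub_pow_of_isNilpotent h
  have h2 : M.charpoly = Polynomial.X ^ Fintype.card n := sub_eq_zero.1 h1.eq_zero
  have h3 := Matrix.aeval_self_charpoly M
  rw [h2] at h3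
  simpa using h3

theorem unip_four {n : ℕ} [NeZero n] (hn : n ≤ 4) {K : Type*} [Field K] [CharP K 2] (x : GL (Fin n) K) {j : ℕ}
    (hx : x ^ 2 ^ j = 1) : x ^ 4 = 1 := by
  have hf2 : Fact (Nat.Prime 2) := ⟨Nat.prime_two⟩
  have hc : Commute (x : Matrix (Fin n) (Fin n) K) 1 := Commute.one_right _
  have h1 : ((x : Matrix (Fin n) (Fin n) K) - 1) ^ 2 ^ j = 0 := by
    rw [sub_pow_char_pow_of_commute _ _ hc, one_pow]
    have : ((x ^ 2 ^ j : GL (Fin n) K) : Matrix (Fin n) (Fin n) K) = 1 := by rw [hx]; rfl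
    rw [Units.val_pow_eq_pow_val] at this
    rw [this, sub_self]
  have h2 := pow_card_eq_zero ⟨_, h1⟩
  rw [Fintype.card_fin] at h2
  have h3 : ((x : Matrix (Fin n) (Fin n) K) - 1) ^ 2 ^ 2 = 0 := pow_eq_zero_of_le hn h2
  rw [sub_pow_char_pow_of_commute _ _ hc, one_pow] at h3
  apply Units.ext
  rw [Units.val_pow_eq_pow_val, Units.val_one]
  exact sub_eq_zero.1 h3

/-- 2-elements of a quotient of a linear group of degree at most 4 over a field of characteristic 2 -/
theorem pow_four {n : ℕ} [NeZero n] (hn : n ≤ 4) {K : Type*} [Field K] [CharP K 2] {X Y : Type*} [Group X] [Group Y]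
    [Finite X] (ι : X →* GL (Fin n) K) (hι : Function.Injective ι) (f : X →* Y) (hf : Function.Surjective f)
    (y : Y) {j : ℕ} (hy : y ^ 2 ^ j = 1) : y ^ 4 = 1 := by
  obtain ⟨g, rfl⟩ := hf y
  obtain ⟨a, b, hb, hab⟩ := Nat.exists_eq_two_pow_mul_odd (orderOf_pos g).ne'
  have h1 : (ι (g ^ b)) ^ 2 ^ a = 1 := by
    rw [← map_pow, ← pow_mul, mul_comm b, ← hab, pow_orderOf_eq_one, map_one]
  have h2 := unip_four hn _ h1
  rw [← map_pow] at h2
  have h3 : (g ^ b) ^ 4 = 1 := hι (by rw [h2, map_one])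
  have h4 : (f g) ^ (b * 4) = 1 := by rw [← map_pow, pow_mul, h3, map_one]
  have h5 := orderOf_dvd_of_pow_eq_one h4
  have h6 := orderOf_dvd_of_pow_eq_one hy
  apply orderOf_dvd_iff_pow_eq_one.1
  refine Nat.Coprime.dvd_of_dvd_mul_left (Nat.Coprime.coprime_dvd_left h6 ?_) h5
  exact Nat.Coprime.pow_left _ ((Nat.coprime_two_left).2 hb)

end unip

universe u

variable {S : Type} [Group S]

theorem sz_pow_four (h : Real (.sz 8) S) (y : S) {j : ℕ} (hy : y ^ 2 ^ j = 1) : y ^ 4 = 1 := by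
  obtain ⟨F, _, _, m, hm, hF, h8, ⟨e⟩⟩ := h
  have hf2 : Fact (Nat.Prime 2) := ⟨Nat.prime_two⟩
  have : CharP F 2 := charP_of_card_eq_prime_pow (hF.trans h8)
  have hfin : Finite (Lie.Sz F (2 ^ (m + 1))) := inferInstance
  exact pow_four (n := 4) le_rfl (Subgroup.subtype _) (Subgroup.subtype_injective _) e.symm.toMonoidHom
    e.symm.surjective y hy

theorem psu_pow_four (h : Real (.psu 3 4) S) (y : S) {j : ℕ} (hy : y ^ 2 ^ j = 1) : y ^ 4 = 1 := by
  obtain ⟨F, _, _, hF, ⟨e⟩⟩ := h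
  have hf2 : Fact (Nat.Prime 2) := ⟨Nat.prime_two⟩
  have : CharP F 2 := charP_of_card_eq_prime_pow (f := 4) (hF.trans (by norm_num))
  have hfin : Finite (SU 3 F 4) := inferInstance
  refine pow_four (n := 3) (by norm_num) ((Matrix.SpecialLinearGroup.toGL (n := Fin 3) (R := F)).comp (SU 3 F 4).subtype)
    ?_ (e.symm.toMonoidHom.comp (QuotientGroup.mk' (center (SU 3 F 4)))) ?_ y hy
  · rw [MonoidHom.coe_comp]
    exact Matrix.SpecialLinearGroup.toGL_injective.comp (Subgroup.subtype_injective _)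
  · rw [MonoidHom.coe_comp]
    exact e.symm.surjective.comp (QuotientGroup.mk'_surjective _)

theorem card_mulAut_congr {X Y : Type*} [Group X] [Group Y] (e : X ≃* Y) : Nat.card (MulAut X) = Nat.card (MulAut Y) :=
  Nat.card_congr (MulAut.congr e).toEquiv

theorem aut_sz [Finite S] [IsSimpleGroup S] (hna : ¬ ∀ a b : S, a * b = b * a) (h : Real (.sz 8) S) :
    Nat.card (MulAut S) ∣ 3 * Nat.card S := by
  obtain ⟨F, _, _, m, hm, hF, h8, ⟨e⟩⟩ := h
  have hm1 : m = 1 := by
    have h1 : 2 ^ (2 * m + 1) = 2 ^ 3 := by rw [← h8]; norm_num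
    have h2 := Nat.pow_right_injective le_rfl h1
    omega
  subst hm1
  have h1 := Cfsg.Agent.S2126.result (F := F) (m := 1) le_rfl (hF.trans (by norm_num))
  have hfin : Finite (Lie.Sz F (2 ^ (1 + 1))) := inferInstance
  have hs : IsSimpleGroup (Lie.Sz F (2 ^ (1 + 1))) := by
    have := e.symm.isSimpleGroup
    exact this
  have hna' : ¬ IsMulCommutative (Lie.Sz F (2 ^ (1 + 1))) := by
    intro hc
    apply hna
    intro a b
    apply e.injective
    rw [map_mul, map_mul]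
    exact hc.is_comm.comm _ _
  have h2 := H934.OutB.card_out_mul (Lie.Sz F (2 ^ (1 + 1))) hna'
  rw [h1] at h2
  rw [card_mulAut_congr e, ← h2, Nat.card_congr e.toEquiv]

theorem card_pgl {F : Type*} [Field F] [Fintype F] : Nat.card (Matrix.ProjGenLinGroup (Fin 2) F) =
    Nat.gcd 2 (Fintype.card F - 1) * Nat.card (Matrix.ProjectiveSpecialLinearGroup (Fin 2) F) := by
  classical
  have h1 := Cfsg.Agent.S0243.result (F := F) rfl 2 le_rfl
  have h2 : Nat.card (Matrix.ProjGenLinGroup (Fin 2) F) * (Fintype.card F - 1) = Nat.card (GL (Fin 2) F) :=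
    Cfsg.Agent.ClassicalGeometry.PSL2Basic.card_PGL_mul (Fin 2) F
  rw [Matrix.card_GL_field, ← h1] at h2
  have h3 : 0 < Fintype.card F - 1 := by
    have := Fintype.one_lt_card (α := F)
    omega
  have h4 : Nat.card (Matrix.ProjGenLinGroup (Fin 2) F) * (Fintype.card F - 1) =
    (Nat.gcd 2 (Fintype.card F - 1) * Nat.card (Matrix.ProjectiveSpecialLinearGroup (Fin 2) F)) *
      (Fintype.card F - 1) := by
    rw [h2]; ring
  exact Nat.eq_of_mul_eq_mul_right h3 h4

theorem aut_psl [Finite S] (h : Real (.psl 2 25) S) : Nat.card (MulAut S) ∣ 4 * Nat.card S := by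
  obtain ⟨F, _, _, hF, ⟨e⟩⟩ := h
  have hf5 : Fact (Nat.Prime 5) := ⟨by norm_num⟩
  have h1 := Cfsg.Agent.S0813.result (F := F) 5 2 (by norm_num) (hF.trans (by norm_num)) 2 le_rfl (by norm_num)
  rw [if_pos rfl, card_pgl, hF] at h1
  rw [card_mulAut_congr e, Nat.card_congr e.toEquiv, h1, ← mul_assoc]
  norm_num

/-! ### the Sylow 2-subgroups of `PSL₂(25)` -/

/-- the dihedral group of order 8 in the dihedral group of order 24 -/
def dih : DihedralGroup 4 →* DihedralGroup 12 where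
  toFun x := match x with
    | .r i => .r (3 * (i.val : ZMod 12))
    | .sr i => .sr (3 * (i.val : ZMod 12))
  map_one' := by decide
  map_mul' := by decide

theorem dih_ne : dih (.r 1) * dih (.sr 0) ≠ dih (.sr 0) * dih (.r 1) := by decide

theorem exists_ne_comm [Finite S] (h : Real (.psl 2 25) S) (D : Sylow 2 S) :
    ¬ ∀ a ∈ (D : Subgroup S), ∀ b ∈ (D : Subgroup S), a * b = b * a := by
  intro hab
  obtain ⟨F, _, _, hF, ⟨e⟩⟩ := h
  have hf2 : Fact (Nat.Prime 2) := ⟨Nat.prime_two⟩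
  obtain ⟨H, -, ⟨u⟩⟩ := Cfsg.Agent.S0812.result (F := F) hF (by decide)
  let φ : DihedralGroup 4 →* S := (e.symm.toMonoidHom.comp H.subtype).comp (u.symm.toMonoidHom.comp
    (show DihedralGroup 4 →* DihedralGroup ((25 - 1) / Nat.gcd 2 (25 - 1)) from dih))
  have hinj : ∀ a b : DihedralGroup 4, φ a * φ b = φ b * φ a → dih a * dih b = dih b * dih a := by
    intro a b hh
    have h1 : φ (a * b) = φ (b * a) := by rw [map_mul, map_mul, hh]
    have h2 : H.subtype (u.symm (dih (a * b))) = H.subtype (u.symm (dih (b * a))) := e.symm.injective h1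
    have h3 := u.symm.injective (H.subtype_injective h2)
    rw [← map_mul, ← map_mul]
    exact h3
  have hP : IsPGroup 2 φ.range := by
    have h1 : IsPGroup 2 (⊤ : Subgroup (DihedralGroup 4)) := by
      refine IsPGroup.of_card (n := 3) ?_
      rw [Subgroup.card_top, DihedralGroup.nat_card]
      norm_num
    have h2 := h1.map φ
    rwa [← MonoidHom.range_eq_map] at h2
  obtain ⟨P, hPP⟩ := hP.exists_le_sylow
  obtain ⟨g, hg⟩ := MulAction.exists_smul_eq S P D
  have hmem : ∀ a : DihedralGroup 4, g * φ a * g⁻¹ ∈ (D : Subgroup S) := by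
    intro a
    have h1 : φ a ∈ (P : Subgroup S) := hPP ⟨a, rfl⟩
    have h2 : g * φ a * g⁻¹ ∈ ((g • P : Sylow 2 S) : Subgroup S) := by
      rw [Sylow.coe_subgroup_smul, Subgroup.mem_pointwise_smul_iff_inv_smul_mem]
      show (MulAut.conj g)⁻¹ • (g * φ a * g⁻¹) ∈ (P : Subgroup S)
      have h3 : (MulAut.conj g)⁻¹ • (g * φ a * g⁻¹) = φ a := by
        rw [MulAut.smul_def, MulAut.conj_inv_apply]
        group
      rwa [h3]
    rwa [hg] at h2
  apply dih_ne
  apply hinj
  have h1 := hab _ (hmem (.r 1)) _ (hmem (.sr 0))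
  have h2 : g * (φ (.r 1) * φ (.sr 0)) * g⁻¹ = g * (φ (.sr 0) * φ (.r 1)) * g⁻¹ := by
    calc g * (φ (.r 1) * φ (.sr 0)) * g⁻¹ = g * φ (.r 1) * g⁻¹ * (g * φ (.sr 0) * g⁻¹) := by group
      _ = g * φ (.sr 0) * g⁻¹ * (g * φ (.r 1) * g⁻¹) := h1
      _ = _ := by group
  exact mul_left_cancel (mul_right_cancel h2)

end Cfsg.Agent.H153.Cov.Ru
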